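import Mathlib
import Cfsg.Agent.H204.CrossT
import Cfsg.Agent.H185.MinusField

/-!
# Graph-field involutions of `PΩ⁺`: the model `(POmega of a minus form over the fixed field, read over F)` (helper204)

`σ` an involution of `F` with fixed field `j(F₀)`.

* `exists_data` : `θ ≠ σ θ`, `θ + σ θ = j a₀`, `θ σ(θ) = j b₀`, `z₁² + a₀ z₁ z₂ + b₀ z₂²` anisotropic over `F₀`;
* `T = splitEquiv n` : isometry of `minusQ n F (j a₀) (j b₀)` with `plusQ (n + 1) F`;
* `conj_frob` : `T` carries `v ↦ σ(v)` to `r ∘ σ`, `r` the reflection in `e₀ - f₀`;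
* `Ymod` : the graph-field automorphism `r ∘ σ` of `PΩ⁺`; `congr_frob`;
* `simPM` : the similarities of `minusQ n F (j a₀) (j b₀)` of `kappa` one; `map_simPM`; `kappa_mapSim'`; `cent_model`.
-/

set_option autoImplicit false
set_option linter.unusedSectionVars false

namespace Cfsg.Agent.H204.GFModel

open Matrix QuadraticMap Cfsg.Agent.LieClassical.OrthCore Cfsg.Agent.LieClassical.OrthTrans
  Cfsg.Agent.LieClassical.QuadForms
  Cfsg.Agent.ClassicalGeometry.OrthSemi Cfsg.Agent.ClassicalGeometry.Reflection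
  Cfsg.Agent.H198.Classes Cfsg.Agent.H198.OrthFrame Cfsg.Agent.H198.ClassesPlus Cfsg.Agent.H198.ExtForm
  Cfsg.Agent.H185.OrthCent Cfsg.Agent.H185.ExtKappa Cfsg.Agent.H185.SplitOne
  Cfsg.Agent.H198.Carriers Cfsg.Agent.H198.ClassesMinus Cfsg.Agent.H185.MinusField
  Cfsg.Agent.H204.CrossT

universe u v

section Data

variable {F : Type u} [Field F] {F₀ : Type v} [Field F₀] {j : F₀ →+* F} {σ : F ≃+* F}

theorem exists_data (hj : ∀ a, σ a = a ↔ ∃ b, j b = a) (h2 : ∀ a, σ (σ a) = a) (h1 : σ ≠ RingEquiv.refl F) :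
    ∃ (θ : F) (a₀ b₀ : F₀), θ ≠ σ θ ∧ θ + σ θ = j a₀ ∧ θ * σ θ = j b₀ ∧ Aniso a₀ b₀ := by
  obtain ⟨θ, hθ⟩ : ∃ θ, σ θ ≠ θ := by
    by_contra hc
    push Not at hc
    exact h1 (RingEquiv.ext hc)
  obtain ⟨a₀, ha⟩ := (hj (θ + σ θ)).1 (by rw [map_add, h2, add_comm])
  obtain ⟨b₀, hb⟩ := (hj (θ * σ θ)).1 (by rw [map_mul, h2, mul_comm])
  refine ⟨θ, a₀, b₀, hθ.symm, ha.symm, hb.symm, ?_⟩
  intro z₁ z₂ hz
  have h3 : (j z₁ + θ * j z₂) * (j z₁ + σ θ * j z₂) = 0 := by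
    have h4 := congrArg j hz
    simp only [map_add, map_mul, map_pow, map_zero, ha, hb] at h4
    linear_combination h4
  have hz2 : z₂ = 0 := by
    by_contra hne
    have hne' : j z₂ ≠ 0 := (map_ne_zero j).2 hne
    have key : ∀ t : F, j z₁ + t * j z₂ = 0 → σ t = t := by
      intro t ht
      refine (hj t).2 ⟨-z₁ / z₂, ?_⟩
      rw [map_div₀, map_neg, div_eq_iff hne']
      linear_combination -ht
    rcases mul_eq_zero.1 h3 with h4 | h4
    · exact hθ (key _ h4)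
    · have h5 := key _ h4
      rw [h2] at h5
      exact hθ h5.symm
  subst hz2
  have : z₁ ^ 2 = 0 := by linear_combination hz
  exact ⟨(pow_eq_zero_iff two_ne_zero).1 this, rfl⟩

end Data

section Model

variable {F : Type u} [Field F] {σ : F ≃+* F} {n : ℕ}

theorem fix_plus (σ : F ≃+* F) (m : ℕ) : Fix σ (plusQ m F) := by
  intro v
  change quadFormPlus m F (fun i => σ (v i)) = σ (quadFormPlus m F v)
  simp only [quadFormPlus, map_sum, map_mul]

/-- The vector `e₀ - f₀`. -/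
def v0 (n : ℕ) (F : Type u) [Field F] : Fin (n + 1) ⊕ Fin (n + 1) → F := plusStep n F (0, 1, -1)

theorem plusQ_step (w : Fin n ⊕ Fin n → F) (a b : F) :
    plusQ (n + 1) F (plusStep n F (w, a, b)) = plusQ n F w + a * b := by
  rw [plusQ_eq, plusQ_eq, plusForm_plusStep]

theorem Q_v0 : plusQ (n + 1) F (v0 n F) = -1 := by
  rw [v0, plusQ_step, QuadraticMap.map_zero]
  ring

theorem Q_v0_ne : plusQ (n + 1) F (v0 n F) ≠ 0 := by
  rw [Q_v0]
  exact neg_ne_zero.2 one_ne_zero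

theorem sig_v0 (σ : F ≃+* F) (i : Fin (n + 1) ⊕ Fin (n + 1)) : σ (v0 n F i) = v0 n F i := by
  rcases i with i | i
  · refine Fin.cases ?_ (fun i => ?_) i
    · change σ 1 = 1
      exact map_one σ
    · change σ 0 = 0
      exact map_zero σ
  · refine Fin.cases ?_ (fun i => ?_) i
    · change σ (-1) = -1
      rw [map_neg, map_one]
    · change σ 0 = 0
      exact map_zero σ

theorem polar_v0 (w : Fin n ⊕ Fin n → F) (a b : F) :
    polar (plusQ (n + 1) F) (v0 n F) (plusStep n F (w, a, b)) = b - a := by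
  rw [polar, v0, ← map_add, plusQ_step, plusQ_step, Prod.mk_add_mk, Prod.mk_add_mk, plusQ_step,
    QuadraticMap.map_zero, zero_add]
  ring

/-- The reflection in `e₀ - f₀` swaps the first two coordinates. -/
theorem rf_v0 (w : Fin n ⊕ Fin n → F) (a b : F) :
    ((rf (plusQ (n + 1) F) (v0 n F) Q_v0_ne : GL (Fin (n + 1) ⊕ Fin (n + 1)) F) : Matrix _ _ F) *ᵥ
      plusStep n F (w, a, b) = plusStep n F (w, b, a) := by
  rw [rf_mulVec, Q_v0, polar_v0, v0, ← map_smul, ← map_sub]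
  congr 1
  refine Prod.ext ?_ (Prod.ext ?_ ?_)
  · funext i
    simp
  · change a - ((-1)⁻¹ * (b - a)) * 1 = b
    rw [inv_neg, inv_one]
    ring
  · change b - ((-1)⁻¹ * (b - a)) * (-1) = a
    rw [inv_neg, inv_one]
    ring

theorem sig_step (σ : F ≃+* F) (w : Fin n ⊕ Fin n → F) (a b : F) :
    (fun i => σ (plusStep n F (w, a, b) i)) = plusStep n F (fun i => σ (w i), σ a, σ b) := by
  funext i
  rcases i with i | i
  · refine Fin.cases ?_ (fun i => ?_) i <;> rfl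
  · refine Fin.cases ?_ (fun i => ?_) i <;> rfl

variable {θ a b : F}

/-- `T` carries `σ` to `r ∘ σ`. -/
theorem conj_frob (h2 : ∀ c, σ (σ c) = c) (hθ : θ ≠ σ θ) (ha : θ + σ θ = a) (hb : θ * σ θ = b)
    (hσ : Fix σ (minusQ n F a b)) :
    conjGam (splitEquiv n hθ) (splitEquiv_form hθ ha hb) (frobG hσ) =
      simGam _ (rf (plusQ (n + 1) F) (v0 n F) Q_v0_ne) * frobG (fix_plus σ (n + 1)) := by
  apply Subtype.ext
  ext1 v
  obtain ⟨v, rfl⟩ := (splitEquiv n hθ).surjective v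
  rw [conjGam_apply]
  change _ = (simGam _ (rf (plusQ (n + 1) F) (v0 n F) Q_v0_ne)).1
    ((frobG (fix_plus σ (n + 1))).1 (splitEquiv n hθ v))
  rw [frobG_apply, frobG_apply, simGam_apply]
  have h3 : ∀ w : (Fin n ⊕ Fin n) ⊕ Fin 2 → F, splitEquiv n hθ w =
      plusStep n F (fun i => w (.inl i), w (.inr 0) + θ * w (.inr 1), w (.inr 0) + σ θ * w (.inr 1)) :=
    fun w => rfl
  rw [h3, h3, sig_step, rf_v0, map_add, map_add, map_mul, map_mul, h2]

/-- The graph-field automorphism `r ∘ σ`. -/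
noncomputable def Ymod (hG : Good (plusQ (n + 1) F)) (σ : F ≃+* F) :
    MulAut (POmega F ⇑(plusQ (n + 1) F)) :=
  S hG (rf (plusQ (n + 1) F) (v0 n F) Q_v0_ne) * Phi hG (frobG (fix_plus σ (n + 1)))

theorem congr_frob (h2 : ∀ c, σ (σ c) = c) (hθ : θ ≠ σ θ) (ha : θ + σ θ = a) (hb : θ * σ θ = b)
    (hσ : Fix σ (minusQ n F a b)) (hG : Good (plusQ (n + 1) F)) (hG' : Good (minusQ n F a b)) :
    MulAut.congr (poT (splitEquiv_form (m := n) hθ ha hb)) (Phi hG' (frobG hσ)) = Ymod hG σ := by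
  rw [congr_Phi _ hG hG', conj_frob h2 hθ ha hb, map_mul]
  rfl

theorem isGraphField_Ymod (hG : Good (plusQ (n + 1) F)) (h1 : σ ≠ RingEquiv.refl F) :
    IsGraphFieldAutClassPOmegaPlus (n + 1) (Ymod hG σ) := by
  refine ⟨1, S hG (rf (plusQ (n + 1) F) (v0 n F) Q_v0_ne), Phi hG (frobG (fix_plus σ (n + 1))), σ, v0 n F,
    (rf (plusQ (n + 1) F) (v0 n F) Q_v0_ne : GL (Fin (n + 1) ⊕ Fin (n + 1)) F), h1, Q_v0_ne, sig_v0 σ, ?_,
    (induced_iff_S hG _ _).2 rfl, (isFieldAut_iff hG (fix_plus σ (n + 1)) _).2 rfl, ?_⟩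
  · exact coe_reflIso (plusQ (n + 1) F) (v0 n F) Q_v0_ne
  · change (1 : MulAut (POmega F ⇑(plusQ (n + 1) F))) * Ymod hG σ * 1⁻¹ = _
    rw [one_mul, inv_one, mul_one]
    rfl

end Model

/-! ### `kappa` -/

section Kappa

variable {F : Type u} [Field F] {σ : F ≃+* F} {n : ℕ} {θ θ' a b : F}

/-- The similarities of the form `minusQ n F a b` which preserve the two classes (the form being split). -/
noncomputable def simPM (n : ℕ) (hθ : θ ≠ θ') (ha : θ + θ' = a) (hb : θ * θ' = b) :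
    Subgroup (Sim (minusQ n F a b)) :=
  ((kappa (neutral_minusK (m := n) hθ ha hb)).comp (simGam _)).ker

theorem mem_simPM (hθ : θ ≠ θ') (ha : θ + θ' = a) (hb : θ * θ' = b) (g : Sim (minusQ n F a b)) :
    g ∈ simPM n hθ ha hb ↔ kappa (neutral_minusK (m := n) hθ ha hb) (simGam _ g) = 1 := Iff.rfl

theorem simT_mem_iff (hθ : θ ≠ θ') (ha : θ + θ' = a) (hb : θ * θ' = b) (g : Sim (minusQ n F a b)) :
    simT (splitEquiv_form (m := n) hθ ha hb) g ∈ simPlus (n + 1) F ↔ g ∈ simPM n hθ ha hb := by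
  rw [mem_simPlus, mem_simPM, ← conjGam_simGam, kappa_conj _ _ (neutral_minusK (m := n) hθ ha hb)]

theorem map_simPM (hθ : θ ≠ θ') (ha : θ + θ' = a) (hb : θ * θ' = b) (hG : Good (plusQ (n + 1) F))
    (hG' : Good (minusQ n F a b)) :
    ((simPM n hθ ha hb).map (S hG')).map
      (MulAut.congr (poT (splitEquiv_form (m := n) hθ ha hb))).toMonoidHom = inndiagPOmegaPlus (n + 1) F := by
  rw [inndiag_plus_eq hG]
  exact map_map_S _ hG hG' (simT_mem_iff hθ ha hb)

theorem kappa_rf (hθ : θ ≠ θ') (ha : θ + θ' = a) (hb : θ * θ' = b) (v : (Fin n ⊕ Fin n) ⊕ Fin 2 → F)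
    (hv : minusQ n F a b v ≠ 0) :
    kappa (neutral_minusK (m := n) hθ ha hb) (simGam _ (rf _ v hv)) = -1 := by
  rw [← simO_refl, simGam_simO, kappa_refl]

variable [Finite F] {F₀ : Type v} [Field F₀] [Finite F₀] {j : F₀ →+* F} {a₀ b₀ : F₀}

/-- `kappa` on the similarities of the small form. -/
theorem kappa_mapSim' (hn : 2 ≤ n) (hab : Aniso a₀ b₀) (hθ : θ ≠ θ') (ha : θ + θ' = j a₀) (hb : θ * θ' = j b₀)
    (hG : Good (minusQ n F (j a₀) (j b₀))) (g : Sim (minusQ n F₀ a₀ b₀)) :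
    kappa (neutral_minusK (m := n) hθ ha hb) (simGam _ (mapSim (ext_minus j n a₀ b₀) g)) = kapM hab g := by
  have hG₀ := good_minusQ hn hab
  by_cases h2 : (2 : F₀) = 0
  · have h3 : ((kappa (neutral_minusK (m := n) hθ ha hb)).comp (simGam _)).comp
        (mapSim (ext_minus j n a₀ b₀)) = kapM hab := by
      apply hom_unique_two h2 hG₀
      intro v hv
      rw [kapM_refl, simO_refl, MonoidHom.comp_apply, MonoidHom.comp_apply, mapSim_rf, kappa_rf hθ ha hb]
    exact DFunLike.congr_fun h3 g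
  · have h2' : (2 : F) ≠ 0 := by
      rw [← map_ofNat j]
      exact (map_ne_zero j).2 h2
    have h3 := sgn_kappa_minusK hn hθ ha hb (mapSim (ext_minus j n a₀ b₀) g)
      (mu hG (mapSim (ext_minus j n a₀ b₀) g)) (mu_spec hG _)
    rw [mu_mapSim _ hG₀ hG, dt_mapSim, ← sgn_kapM hn hab hG₀ g, map_mul, map_pow, mul_left_inj] at h3
    have h4 : Units.map (j : F₀ →* F) (sgn F₀ (kapM hab g)) = sgn F (kapM hab g) := by
      apply Units.ext
      simp [sgn]
    rw [h4] at h3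
    have h5 : sgn F (kappa (neutral_minusK (m := n) hθ ha hb) (simGam _ (mapSim (ext_minus j n a₀ b₀) g)) *
        (kapM hab g)⁻¹) = 1 := by
      rw [map_mul, map_inv, h3, mul_inv_cancel]
    rw [sgn_eq_one_iff h2', mul_inv_eq_one] at h5
    exact h5

theorem kappa_sc (hn : 2 ≤ n) (hθ : θ ≠ θ') (ha : θ + θ' = a) (hb : θ * θ' = b)
    (hG : Good (minusQ n F a b)) (e : Fˣ) :
    kappa (neutral_minusK (m := n) hθ ha hb) (simGam _ (H185.OrthCent.scSim (minusQ n F a b) e)) = 1 := by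
  have hb := lag_base (neutral_minusK (m := n) hθ ha hb)
  rw [← kappa_eq _ _ hb]
  set U := base (neutral_minusK (m := n) hθ ha ‹θ * θ' = b›) with hU
  have h1 : img (simGam _ (H185.OrthCent.scSim (minusQ n F a b) e)) U = U := by
    ext x
    constructor
    · rintro ⟨u, hu, rfl⟩
      have h3 : (simGam _ (H185.OrthCent.scSim (minusQ n F a b) e)).1 u = (e : F) • u := by
        rw [simGam_apply, H185.OrthCent.coe_scSim, H202.Descent.coe_scg, Matrix.smul_mulVec, one_mulVec]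
      rw [h3]
      exact Submodule.smul_mem _ _ hu
    · intro hx
      refine ⟨((e⁻¹ : Fˣ) : F) • x, Submodule.smul_mem _ _ hx, ?_⟩
      rw [simGam_apply, H185.OrthCent.coe_scSim, H202.Descent.coe_scg, Matrix.smul_mulVec, one_mulVec, smul_smul,
        ← Units.val_mul, mul_inv_cancel, Units.val_one, one_smul]
  rw [h1, par_self hb]

/-- The centralizer in the model. -/
theorem cent_model (hn : 2 ≤ n) (hab : Aniso a₀ b₀) (hθ : θ ≠ θ') (ha : θ + θ' = j a₀) (hb : θ * θ' = j b₀)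
    {σ : F ≃+* F} (hj : ∀ a, σ a = a ↔ ∃ b, j b = a)
    (hG : Good (minusQ n F (j a₀) (j b₀))) (hσ : Fix σ (minusQ n F (j a₀) (j b₀))) :
    Nonempty (↥((simPM n hθ ha hb).map (S hG) ⊓ Subgroup.centralizer {Phi hG (frobG hσ)}) ≃*
      ↥(inndiagPOmegaMinus n F₀ a₀ b₀)) := by
  have hG₀ := good_minusQ hn hab
  have hC : ∀ g₀, mapSim (ext_minus j n a₀ b₀) g₀ ∈ simPM n hθ ha hb ↔ g₀ ∈ simMinus n hab := by
    intro g₀
    rw [mem_simPM, mem_simMinus, kappa_mapSim' hn hab hθ ha hb hG]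
  have hne : Nonempty ((Fin n ⊕ Fin n) ⊕ Fin 2) := ⟨.inr 0⟩
  rw [inndiag_minus_eq hn hab hG₀]
  exact centIso (ext_minus j n a₀ b₀) hG₀ hG hσ hj (simMinus n hab) (simPM n hθ ha hb) hC
    (kappa_sc hn hθ ha hb hG)

end Kappa

end Cfsg.Agent.H204.GFModel
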