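import Mathlib
import Cfsg.Agent.H204.GFModel
import Cfsg.Agent.OddCyclic.L2Borel
import Cfsg.Agent.Lib.FieldAutCard
import Cfsg.Agent.S2736

/-!
# Graph-field involutions of `PΩ⁺_{2m}(F)`, `m ≥ 5`: the field automorphism and conjugacy (helper204)

* `exists_form` : an involutory graph-field automorphism is `Phi M`, `M` semilinear over `σ`, `σ² = 1 ≠ σ`,
  `kappa M = - kappa (v ↦ σ v)`;
* `conj_all` : two of them are conjugate under `Inndiag`.
-/

set_option autoImplicit false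
set_option linter.unusedSectionVars false

namespace Cfsg.Agent.H204.GFConj

open Matrix QuadraticMap Cfsg.Agent.LieClassical.OrthCore Cfsg.Agent.LieClassical.OrthTrans
  Cfsg.Agent.ClassicalGeometry.OrthSemi Cfsg.Agent.ClassicalGeometry.Reflection
  Cfsg.Agent.H198.Classes Cfsg.Agent.H198.OrthFrame Cfsg.Agent.H198.ClassesPlus Cfsg.Agent.H198.ExtForm
  Cfsg.Agent.H185.OrthCent Cfsg.Agent.H185.SplitOne
  Cfsg.Agent.H198.Carriers Cfsg.Agent.H204.GFModel

universe u

section Gen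

variable {ι : Type} [Fintype ι] [DecidableEq ι] {F : Type u} [Field F] {Q : QuadraticForm F (ι → F)}

theorem refl_of_Phi (hG : Good Q) {M : Gam Q} {τ : F ≃+* F} {c : F} (hM : IsSS Q τ c M.1) (h : Phi hG M = 1) :
    τ = RingEquiv.refl F := by
  obtain ⟨a, ha, hv⟩ := (Phi_eq_one_iff hG M).1 h
  obtain ⟨v, hv0⟩ := exists_ne_zero_of_good hG
  have hv1 : v ≠ 0 := by
    rintro rfl
    exact hv0 (QuadraticMap.map_zero Q)
  ext b
  have h1 := hM.smul b v
  rw [hv, hv, smul_comm, smul_smul, smul_smul, ← sub_eq_zero, ← sub_smul, smul_eq_zero] at h1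
  rcases h1 with h1 | h1
  · have h2 : (b - τ b) * a = 0 := by linear_combination h1
    rcases mul_eq_zero.1 h2 with h3 | h3
    · exact (sub_eq_zero.1 h3).symm
    · exact absurd h3 ha
  · exact absurd h1 hv1

end Gen

variable {F : Type u} [Field F] [Finite F] {m : ℕ}

theorem comm_ringAut (σ τ : F ≃+* F) : σ * τ = τ * σ := by
  have hc : IsCyclic (F ≃+* F) := OddCyclic.L2Borel.isCyclic_ringAut
  obtain ⟨g, hg⟩ := hc.exists_generator
  obtain ⟨k, rfl⟩ := Subgroup.mem_zpowers_iff.1 (hg σ)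
  obtain ⟨l, rfl⟩ := Subgroup.mem_zpowers_iff.1 (hg τ)
  rw [← _root_.zpow_add, ← _root_.zpow_add, add_comm]

/-- The shape of an involutory graph-field automorphism. -/
theorem exists_form (hm : 5 ≤ m) (hG : Good (plusQ m F)) {x : MulAut (POmega F ⇑(plusQ m F))}
    (hx : IsGraphFieldAutClassPOmegaPlus m x) (hx2 : orderOf x = 2) :
    ∃ (σ : F ≃+* F) (M : Gam (plusQ m F)) (c : F), σ ≠ 1 ∧ σ * σ = 1 ∧ x = Phi hG M ∧
      IsSS (plusQ m F) σ c M.1 ∧
      kappa (neutral_plusQ m F) M = - kappa (neutral_plusQ m F) (frobG (fix_plus σ m)) := by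
  obtain ⟨α, γ, φ, σ, v, r, hσ, hv', hvσ, hr, hγ, hφ, hx⟩ : ∃ (α γ φ : MulAut (POmega F ⇑(plusQ m F)))
      (σ : F ≃+* F) (v : Fin m ⊕ Fin m → F) (r : GL (Fin m ⊕ Fin m) F),
      σ ≠ RingEquiv.refl F ∧ plusQ m F v ≠ 0 ∧ (∀ i, σ (v i) = v i) ∧
      (r : Matrix (Fin m ⊕ Fin m) (Fin m ⊕ Fin m) F) = reflectionMatrix ⇑(plusQ m F) v ∧
      IsInducedBySemilinearPOmega ⇑(plusQ m F) r (RingEquiv.refl F) γ ∧
      IsFieldAutPOmegaOf ⇑(plusQ m F) σ φ ∧ α * x * α⁻¹ = γ * φ := hx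
  have hγ' : γ = S hG (rf (plusQ m F) v hv') := by
    refine (induced_iff_S hG (rf (plusQ m F) v hv') γ).1 ?_
    have h1 : ((rf (plusQ m F) v hv' : Sim (plusQ m F)) : GL (Fin m ⊕ Fin m) F) = r := by
      apply Units.ext
      rw [hr]
      exact coe_reflIso (plusQ m F) v hv'
    rw [h1]
    exact hγ
  have hφ' : φ = Phi hG (frobG (fix_plus σ m)) := (isFieldAut_iff hG (fix_plus σ m) φ).1 hφ
  obtain ⟨A, hA⟩ : ∃ A : Gam (plusQ m F), Phi hG A = α := surj_plusQ hm α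
  have hxM : x = Phi hG (A⁻¹ * (simGam _ (rf (plusQ m F) v hv') * frobG (fix_plus σ m)) * A) := by
    rw [map_mul, map_mul, map_mul, map_inv, hA, ← hφ']
    change x = α⁻¹ * (S hG (rf (plusQ m F) v hv') * φ) * α
    rw [← hγ']
    have h1 : x = α⁻¹ * (α * x * α⁻¹) * α := by group
    rw [h1]
    congr 2
  obtain ⟨ρ, d, hρ⟩ := A.2
  have h1 : IsSS (plusQ m F) σ 1 (frobG (fix_plus σ m)).1 := by
    refine isSS_perm one_ne_zero fun v => ?_
    rw [Units.val_one, one_mulVec, one_mul]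
    exact fix_plus σ m v
  have h2 : IsSS (plusQ m F) (RingEquiv.refl F) 1 (simGam _ (rf (plusQ m F) v hv')).1 := by
    refine isSS_perm one_ne_zero fun w => ?_
    rw [one_mul]
    exact (reflIso (plusQ m F) v hv').2 w w
  have h3 := (hρ.inv.mul (h2.mul h1)).mul hρ
  have hτ : ρ.trans ((σ.trans (RingEquiv.refl F)).trans ρ.symm) = σ := by
    have h4 : ρ.trans ((σ.trans (RingEquiv.refl F)).trans ρ.symm) = ρ⁻¹ * σ * ρ := rfl
    rw [h4, mul_assoc, comm_ringAut σ ρ, inv_mul_cancel_left]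
  have h5 := h3
  rw [hτ] at h5
  refine ⟨σ, A⁻¹ * (simGam _ (rf (plusQ m F) v hv') * frobG (fix_plus σ m)) * A, _, hσ, ?_, hxM, h5, ?_⟩
  · have h5 : x * x = 1 := by
      rw [← pow_two, ← hx2, pow_orderOf_eq_one]
    rw [hxM, ← map_mul] at h5
    have h6 := refl_of_Phi hG (h3.mul h3) h5
    rw [hτ] at h6
    exact h6
  · have h6 : kappa (neutral_plusQ m F) (simGam _ (rf (plusQ m F) v hv')) = -1 := by
      rw [← simO_refl, simGam_simO, kappa_refl]
    rw [map_mul, map_mul, map_mul, map_inv, h6]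
    rw [mul_comm, mul_inv_cancel_left, neg_one_mul]

theorem kappa_one_mem (hG : Good (plusQ m F)) {M : Gam (plusQ m F)} {c : F}
    (hM : IsSS (plusQ m F) (RingEquiv.refl F) c M.1) (hk : kappa (neutral_plusQ m F) M = 1) :
    Phi hG M ∈ inndiagPOmegaPlus m F := by
  obtain ⟨g, rfl⟩ := exists_sim_of_refl hM
  rw [inndiag_plus_eq hG]
  exact ⟨g, hk, rfl⟩

/-- Two involutory graph-field automorphisms differ by an inner-diagonal one. -/
theorem mem_inndiag (hm : 5 ≤ m) {x y : MulAut (POmega F ⇑(plusQ m F))}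
    (hx : IsGraphFieldAutClassPOmegaPlus m x) (hx2 : orderOf x = 2)
    (hy : IsGraphFieldAutClassPOmegaPlus m y) (hy2 : orderOf y = 2) :
    y * x⁻¹ ∈ inndiagPOmegaPlus m F := by
  have hG : Good (plusQ m F) := good_plusQ (by omega)
  obtain ⟨σ, M, c, h1, h2, rfl, hM, hk⟩ := exists_form hm hG hx hx2
  obtain ⟨τ, N, d, h1', h2', rfl, hN, hk'⟩ := exists_form hm hG hy hy2
  have hc : IsCyclic (F ≃+* F) := OddCyclic.L2Borel.isCyclic_ringAut
  have hf : Finite (F ≃+* F) := OddCyclic.L2Borel.finite_ringAut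
  obtain rfl : τ = σ := OddCyclic.L2Borel.invol_unique h2' h2 h1' h1
  have h3 : Phi hG N * (Phi hG M)⁻¹ = Phi hG (N * M⁻¹) := by rw [map_mul, map_inv]
  change Phi hG N * (Phi hG M)⁻¹ ∈ inndiagPOmegaPlus m F
  rw [h3]
  have h4 := hN.mul hM.inv
  have h5 : τ.symm.trans τ = RingEquiv.refl F := RingEquiv.ext fun a => τ.apply_symm_apply a
  rw [h5] at h4
  refine kappa_one_mem hG h4 ?_
  rw [map_mul, map_inv, hk, hk', mul_inv_cancel]

/-- **Any two involutory graph-field automorphisms are conjugate under `Inndiag`.** -/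
theorem conj_all (hm : 5 ≤ m) {x y : MulAut (POmega F (quadFormPlus m F))}
    (hx : IsGraphFieldAutClassPOmegaPlus m x) (hx2 : orderOf x = 2)
    (hy : IsGraphFieldAutClassPOmegaPlus m y) (hy2 : orderOf y = 2) :
    IsConjUnder (inndiagPOmegaPlus m F) x y := by
  have := Fintype.ofFinite F
  have h1 := (Cfsg.Agent.S2736.result hm x (y * x⁻¹) (Or.inr hx) Nat.prime_two hx2 (mem_inndiag hm hx hx2 hy hy2)).1
  rw [inv_mul_cancel_right] at h1
  exact h1 hy2

/-- The number of automorphisms is even. -/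
theorem even_of_invol {σ : F ≃+* F} (h1 : σ ≠ 1) (h2 : σ * σ = 1) {p f : ℕ} [Fact p.Prime]
    (hf : 1 ≤ f) (hF : Nat.card F = p ^ f) : Even f := by
  have := Fintype.ofFinite F
  rw [Nat.card_eq_fintype_card] at hF
  have h3 : Nat.card (F ≃+* F) = f := Lib.FieldAutCard.card_ringAut hf hF
  rw [even_iff_two_dvd, ← h3, ← orderOf_eq_prime (p := 2) (by rw [pow_two, h2]) h1]
  exact orderOf_dvd_natCard σ

end Cfsg.Agent.H204.GFConj
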