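import Mathlib
import Cfsg.Agent.H204.GFModel
import Cfsg.Agent.H185.SplitTwo
import Cfsg.Agent.H205.MinusMain

/-!
# The split count of a graph-field involution of `PΩ⁺` (helper204)

* `count_even` : characteristic two: one class;
* `simT_delM` : the proper similarity `delM` of non-square multiplier `c` of the small form is, over `F`, a scalar `s`
  (`s² = c`) times the torus element `(λ / s, s, ..., s)`;
* `count_odd_four`, `count_odd_two`.
-/

set_option autoImplicit false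
set_option linter.unusedSectionVars false

namespace Cfsg.Agent.H204.GFCount

open Matrix QuadraticMap Cfsg.Agent.LieClassical.OrthCore Cfsg.Agent.LieClassical.OrthTrans
  Cfsg.Agent.LieClassical.QuadForms
  Cfsg.Agent.ClassicalGeometry.OrthSemi Cfsg.Agent.ClassicalGeometry.Reflection
  Cfsg.Agent.H198.Classes Cfsg.Agent.H198.OrthFrame Cfsg.Agent.H198.ExtForm
  Cfsg.Agent.H185.OrthCent Cfsg.Agent.H185.ExtKappa Cfsg.Agent.H185.SplitOne
  Cfsg.Agent.H198.Carriers Cfsg.Agent.H185.MinusField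
  Cfsg.Agent.H204.CrossT Cfsg.Agent.H204.GFModel
open Cfsg.Agent.H198.ClassesPlus (mu mu_spec mu_unique mu_eq_one_iff dt dt_apply sgn sgn_eq_one_iff)
open Cfsg.Agent.H198.ClassesMinus (kapM kapM_iff mem_simMinus simMinus)
open Cfsg.Agent.H205.Gen (incI etaS eta chi scS etaS_eq_one_iff chi_eq_one_iff chi_eq_neg_one_iff)
open Cfsg.Agent.H205.GenInn (sg ngI mem_inn_iff)
open Cfsg.Agent.H205.Torus (torP torP_mulVec_inl torP_mulVec_inr det_torP sg_torP sg_ngI_plus)
open Cfsg.Agent.H205.TorusMinus (delM delMat coe_delM delMat_inl delMat_inr delMat_zero delMat_one)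
open Cfsg.Agent.H205.MinusMain (card_minus etaS_delM chi_mu_delM exists_del)

universe u v

section Inn

variable {ι κ : Type} [Fintype ι] [DecidableEq ι] [Fintype κ] [DecidableEq κ] {F : Type u} [Field F]
  {Q : QuadraticForm F (ι → F)} {Q' : QuadraticForm F (κ → F)} {T : (κ → F) ≃ₗ[F] (ι → F)}

theorem inn_iff (hT : ∀ v, Q (T v) = Q' v) (hG : Good Q) (hG' : Good Q') (g : Sim Q') :
    S hG' g ∈ Inn (POmega F ⇑Q') ↔ S hG (simT hT g) ∈ Inn (POmega F ⇑Q) := by
  rw [← congr_S hT hG hG', ← H185.IsoTransport.inn_map (poT hT)]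
  constructor
  · intro h
    exact ⟨_, h, rfl⟩
  · rintro ⟨y, hy, h⟩
    rwa [← (MulAut.congr (poT hT)).injective h]

end Inn

section Main

variable {F : Type u} [Field F] [Finite F] {F₀ : Type v} [Field F₀] [Finite F₀] {j : F₀ →+* F} {n : ℕ}
  {a₀ b₀ : F₀} {θ θ' : F}

/-- Characteristic two: one class. -/
theorem count_even (h2 : (2 : F) = 0) (hn : 2 ≤ n) (hab : Aniso a₀ b₀) (hθ : θ ≠ θ') (ha : θ + θ' = j a₀)
    (hb : θ * θ' = j b₀) {σ : F ≃+* F} (hj : ∀ a, σ a = a ↔ ∃ b, j b = a)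
    (hG : Good (minusQ n F (j a₀) (j b₀))) (hσ : Fix σ (minusQ n F (j a₀) (j b₀))) :
    splitClassCount ((simPM n hθ ha hb).map (S hG)) (Inn (POmega F ⇑(minusQ n F (j a₀) (j b₀))))
      (Phi hG (frobG hσ)) = 1 := by
  have hG₀ := good_minusQ hn hab
  have hne : Nonempty ((Fin n ⊕ Fin n) ⊕ Fin 2) := ⟨.inr 0⟩
  have hχ : ∀ v hv, ((kappa (neutral_minusK (m := n) hθ ha hb)).comp (simGam _)) (rf _ v hv) = -1 :=
    fun v hv => kappa_rf hθ ha hb v hv
  have he : Even (Fintype.card ((Fin n ⊕ Fin n) ⊕ Fin 2)) := ⟨n + 1, by rw [card_I]; ring⟩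
  refine split_one hG (fun x hx => chi_omega ((kappa (neutral_minusK (m := n) hθ ha hb)).comp (simGam _)) hx) ?_
  apply cover (ext_minus j n a₀ b₀) hG₀ hG hσ hj (simMinus n hab) (simPM n hθ ha hb)
  · intro g₀
    rw [mem_simPM, mem_simMinus, kappa_mapSim' hn hab hθ ha hb hG]
  · exact kappa_sc hn hθ ha hb hG
  · intro a
    obtain ⟨s, hs⟩ := Cfsg.Agent.H198.ClassesMinus.exists_sq_of_two h2 a
    exact ⟨1, s, by rw [map_one, mul_one]; exact hs⟩
  · exact exists_mult_ker hG₀ he (kapM hab) (fun v hv => kapM_rf hab hv)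
  · intro x hx
    exact iso_two (ext_minus j n a₀ b₀) h2 hG (simMinus n hab) _ hχ x hx

/-- Odd characteristic: the group of the model. -/
theorem simPM_eq_pd (h2 : (2 : F) ≠ 0) (hn : 2 ≤ n) {a b : F} (hθ : θ ≠ θ') (ha : θ + θ' = a)
    (hb : θ * θ' = b) (hG : Good (minusQ n F a b)) :
    (simPM n hθ ha hb).map (S hG) = H205.Gen.pd hG h2 (card_minus n) := by
  unfold H205.Gen.pd
  congr 1
  ext g
  rw [mem_simPM, MonoidHom.mem_ker, etaS_eq_one_iff]
  have h3 := sgn_kappa_minusK hn hθ ha hb g (mu hG g) (mu_spec hG g)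
  constructor
  · intro h
    rw [h, map_one, one_mul] at h3
    exact h3.symm
  · intro h
    rw [h, mul_eq_right, sgn_eq_one_iff h2] at h3
    exact h3

omit [Finite F] [Finite F₀] in
theorem map_delMat (j : F₀ →+* F) (n : ℕ) (a b c x y : F₀) :
    (delMat n a b c x y).map j = delMat n (j a) (j b) (j c) (j x) (j y) := by
  unfold delMat
  rw [Matrix.fromBlocks_map, Matrix.diagonal_map (map_zero j), Matrix.map_zero _ (map_zero j),
    Matrix.map_zero _ (map_zero j)]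
  congr 1
  · congr 1
    funext i
    rcases i with i | i
    · rfl
    · exact map_one j
  · ext i k
    fin_cases i <;> fin_cases k <;> simp

omit [Finite F] [Finite F₀] in
theorem T_apply (hθ : θ ≠ θ') (w : (Fin n ⊕ Fin n) ⊕ Fin 2 → F) : splitEquiv n hθ w =
    plusStep n F (fun i => w (.inl i), w (.inr 0) + θ * w (.inr 1), w (.inr 0) + θ' * w (.inr 1)) := rfl

omit [Finite F] [Finite F₀] in
/-- The similarity `delM` over `F`. -/
theorem simT_delM (hθ : θ ≠ θ') (ha : θ + θ' = j a₀) (hb : θ * θ' = j b₀) {c x y : F₀} (hc : c ≠ 0)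
    (h : x ^ 2 + a₀ * x * y + b₀ * y ^ 2 = c) (s l : Fˣ) (hs : (s : F) * s = j c) (hl : (l : F) = j x + θ * j y) :
    simT (splitEquiv_form (m := n) hθ ha hb) (mapSim (ext_minus j n a₀ b₀) (delM n a₀ b₀ hc h)) =
      scS _ s * incI _ (torP (n + 1) F (Fin.cons (l * s⁻¹) fun _ => s)) := by
  have hll : (l : F) * (j x + θ' * j y) = (s : F) * s := by
    rw [hs, ← h, hl]
    simp only [map_add, map_mul, map_pow, ← ha, ← hb]
    ring
  have hs0 := s.ne_zero
  have hl0 := l.ne_zero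
  apply sim_ext
  intro v
  obtain ⟨v, rfl⟩ := (splitEquiv n hθ).surjective v
  rw [simT_mulVec]
  have h1 : ((mapSim (ext_minus j n a₀ b₀) (delM n a₀ b₀ hc h) : GL ((Fin n ⊕ Fin n) ⊕ Fin 2) F) :
      Matrix ((Fin n ⊕ Fin n) ⊕ Fin 2) ((Fin n ⊕ Fin n) ⊕ Fin 2) F) =
      delMat n (j a₀) (j b₀) (j c) (j x) (j y) := by
    rw [← map_delMat]
    rfl
  rw [h1]
  have h2 : ((scS (plusQ (n + 1) F) s * incI _ (torP (n + 1) F (Fin.cons (l * s⁻¹) fun _ => s)) :
      Sim (plusQ (n + 1) F)) : GL (Fin (n + 1) ⊕ Fin (n + 1)) F).1 *ᵥ (splitEquiv n hθ v) =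
      (s : F) • (((torP (n + 1) F (Fin.cons (l * s⁻¹) fun _ => s) : isometryGroup F ⇑(plusQ (n + 1) F)) :
        GL (Fin (n + 1) ⊕ Fin (n + 1)) F).1 *ᵥ (splitEquiv n hθ v)) := by
    rw [Subgroup.coe_mul, H205.Gen.coe_mulVec_mul, H205.Gen.scS_mulVec]
    rfl
  rw [h2, T_apply, T_apply]
  funext i
  rw [Pi.smul_apply, smul_eq_mul]
  rcases i with i | i
  · rw [torP_mulVec_inl]
    refine Fin.cases ?_ (fun i => ?_) i
    · change (delMat n (j a₀) (j b₀) (j c) (j x) (j y) *ᵥ v) (.inr 0) +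
        θ * (delMat n (j a₀) (j b₀) (j c) (j x) (j y) *ᵥ v) (.inr 1) =
        s * (((l * s⁻¹ : Fˣ) : F) * (v (.inr 0) + θ * v (.inr 1)))
      rw [delMat_zero, delMat_one, Units.val_mul, Units.val_inv_eq_inv_val, hl, ← ha, ← hb]
      field_simp
      ring
    · change (delMat n (j a₀) (j b₀) (j c) (j x) (j y) *ᵥ v) (.inl (.inl i)) =
        s * ((s : F) * v (.inl (.inl i)))
      rw [delMat_inl, ← mul_assoc, hs]
  · rw [torP_mulVec_inr]
    refine Fin.cases ?_ (fun i => ?_) i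
    · change (delMat n (j a₀) (j b₀) (j c) (j x) (j y) *ᵥ v) (.inr 0) +
        θ' * (delMat n (j a₀) (j b₀) (j c) (j x) (j y) *ᵥ v) (.inr 1) =
        s * ((((l * s⁻¹ : Fˣ)⁻¹ : Fˣ) : F) * (v (.inr 0) + θ' * v (.inr 1)))
      have h3 : (s : F) * (((l * s⁻¹ : Fˣ)⁻¹ : Fˣ) : F) = j x + θ' * j y := by
        rw [Units.val_inv_eq_inv_val, Units.val_mul, Units.val_inv_eq_inv_val]
        field_simp
        linear_combination -hll
      rw [← mul_assoc, h3, delMat_zero, delMat_one, ← ha, ← hb]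
      ring
    · change (delMat n (j a₀) (j b₀) (j c) (j x) (j y) *ᵥ v) (.inl (.inr i)) =
        s * (((s⁻¹ : Fˣ) : F) * v (.inl (.inr i)))
      rw [delMat_inr, ← mul_assoc, ← Units.val_mul, mul_inv_cancel, Units.val_one, one_mul]

/-- The element `λ` of non-square norm is a non-square. -/
theorem chi_lam {σ : F ≃+* F} (hj : ∀ a, σ a = a ↔ ∃ b, j b = a) (h2σ : ∀ a, σ (σ a) = a) {c : F₀} (hc : c ≠ 0)
    (hc1 : chi F₀ (Units.mk0 c hc) = -1) {l : Fˣ} (hl : (l : F) * σ l = j c) : chi F l = -1 := by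
  rw [chi_eq_neg_one_iff]
  rintro ⟨r, hr⟩
  rw [chi_eq_neg_one_iff, Units.val_mk0] at hc1
  apply hc1
  obtain ⟨t, ht⟩ := (hj (r * σ r)).1 (by rw [map_mul, h2σ, mul_comm])
  refine ⟨t, j.injective ?_⟩
  rw [map_mul, ht, ← hl, hr, map_mul]
  ring

omit [Finite F] [Finite F₀] in
theorem two_ne_map (j : F₀ →+* F) (h2 : (2 : F) ≠ 0) : (2 : F₀) ≠ 0 := by
  intro h
  apply h2
  rw [← map_ofNat j, h, map_zero]

/-- The quadratic character of a square root of a non-square of `F₀`. -/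
theorem chi_root (j : F₀ →+* F) (h2 : (2 : F) ≠ 0) (hcard : Nat.card F = Nat.card F₀ ^ 2) {c : F₀} (hc : c ≠ 0)
    (hc1 : chi F₀ (Units.mk0 c hc) = -1) {s : Fˣ} (hs : (s : F) * s = j c) :
    chi F s = 1 ↔ Nat.card F₀ % 4 = 3 := by
  have := Fintype.ofFinite F
  have := Fintype.ofFinite F₀
  have h2₀ := two_ne_map j h2
  have hch : ringChar F ≠ 2 := Cfsg.Agent.ClassicalGeometry.Universal.ringChar_ne_two h2
  have hch₀ : ringChar F₀ ≠ 2 := Cfsg.Agent.ClassicalGeometry.Universal.ringChar_ne_two h2₀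
  rw [Nat.card_eq_fintype_card, Nat.card_eq_fintype_card] at hcard
  rw [Nat.card_eq_fintype_card, chi_eq_one_iff, FiniteField.isSquare_iff hch s.ne_zero]
  rw [chi_eq_neg_one_iff, Units.val_mk0, FiniteField.isSquare_iff hch₀ hc] at hc1
  have h3 := (FiniteField.pow_dichotomy hch₀ hc).resolve_left hc1
  have hq : Odd (Fintype.card F₀) := by
    rcases Nat.even_or_odd (Fintype.card F₀) with he | ho
    · exact absurd (FiniteField.even_card_iff_char_two.2 (Nat.even_iff.1 he)) hch₀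
    · exact ho
  obtain ⟨k, hk⟩ := hq
  have e1 : Fintype.card F / 2 = 2 * k * (k + 1) := by
    rw [hcard, hk]
    have e2 : (2 * k + 1) ^ 2 = 2 * (2 * k * (k + 1)) + 1 := by ring
    rw [e2]
    omega
  have e3 : Fintype.card F₀ / 2 = k := by rw [hk]; omega
  rw [e3] at h3
  have h4 : (s : F) ^ (2 * k) = -1 := by
    rw [pow_mul, pow_two, hs, ← map_pow, h3, map_neg, map_one]
  rw [e1, pow_mul, h4]
  rcases Nat.even_or_odd k with hk2 | hk2
  · rw [hk2.add_one.neg_one_pow]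
    obtain ⟨i, hi⟩ := hk2
    constructor
    · intro h5
      exfalso
      apply h2
      linear_combination -h5
    · intro h5
      omega
  · rw [hk2.add_one.neg_one_pow]
    obtain ⟨i, hi⟩ := hk2
    constructor
    · intro _
      omega
    · intro _
      rfl

/-- `-1` is a square in `F`. -/
theorem chi_neg_one (j : F₀ →+* F) (hcard : Nat.card F = Nat.card F₀ ^ 2) : chi F (-1) = 1 := by
  rw [chi_eq_one_iff, Units.val_neg, Units.val_one]
  have h := H185.SplitTwo.isSquare_map j hcard (-1)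
  rwa [map_neg, map_one] at h

variable {σ : F ≃+* F}

/-- When is the image of `delM` inner? -/
theorem inn_delM (h2 : (2 : F) ≠ 0) (hn : 2 ≤ n) (hθ : θ ≠ θ') (ha : θ + θ' = j a₀)
    (hb : θ * θ' = j b₀) (hG : Good (minusQ n F (j a₀) (j b₀))) (hcard : Nat.card F = Nat.card F₀ ^ 2)
    {c x y : F₀} (hc : c ≠ 0) (h : x ^ 2 + a₀ * x * y + b₀ * y ^ 2 = c) (s l : Fˣ) (hs : (s : F) * s = j c)
    (hl : (l : F) = j x + θ * j y) :
    S hG (mapSim (ext_minus j n a₀ b₀) (delM n a₀ b₀ hc h)) ∈ Inn (POmega F ⇑(minusQ n F (j a₀) (j b₀))) ↔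
      chi F l * chi F s ^ (n + 1) = 1 := by
  have hG' : Good (plusQ (n + 1) F) := good_plusQ (by omega)
  have hcp : Fintype.card (Fin (n + 1) ⊕ Fin (n + 1)) = 2 * (n + 1) := by
    rw [Fintype.card_sum, Fintype.card_fin]; ring
  rw [inn_iff (splitEquiv_form (m := n) hθ ha hb) hG' hG, simT_delM hθ ha hb hc h s l hs hl, map_mul,
    H205.Gen.S_scS, one_mul, mem_inn_iff hG' h2 hcp, sg_ngI_plus _ h2, chi_neg_one j hcard, one_pow, or_self,
    sg_torP _ h2, Fin.prod_univ_succ]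
  simp only [Fin.cons_zero, Fin.cons_succ, Finset.prod_const, Finset.card_univ, Fintype.card_fin]
  have h5 : chi F (l * s⁻¹) * chi F s ^ n = chi F l * chi F s ^ (n + 1) := by
    rw [map_mul, map_inv]
    rcases Int.units_eq_one_or (chi F s) with h6 | h6 <;> rw [h6]
    · simp
    · rw [Int.units_inv_eq_self, pow_succ, mul_assoc, mul_comm (-1 : ℤˣ)]
  rw [h5]
  constructor
  · exact fun h => h.2
  · exact fun h => ⟨det_torP _ _, h⟩

/-- **Four classes.** -/
theorem count_odd_four (h2 : (2 : F) ≠ 0) (hn : 2 ≤ n) (hab : Aniso a₀ b₀) (hθ : θ ≠ σ θ)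
    (ha : θ + σ θ = j a₀) (hb : θ * σ θ = j b₀) (hj : ∀ a, σ a = a ↔ ∃ b, j b = a) (h2σ : ∀ a, σ (σ a) = a)
    (hcard : Nat.card F = Nat.card F₀ ^ 2)
    (hG : Good (minusQ n F (j a₀) (j b₀))) (hσ : Fix σ (minusQ n F (j a₀) (j b₀)))
    (hodd : Odd (n + 1)) (hq : Nat.card F₀ % 4 = 1) :
    splitClassCount ((simPM n hθ ha hb).map (S hG)) (Inn (POmega F ⇑(minusQ n F (j a₀) (j b₀))))
      (Phi hG (frobG hσ)) = 4 := by
  have hG₀ := good_minusQ hn hab
  have h2₀ := two_ne_map j h2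
  obtain ⟨c, x, y, hc, h, hc1⟩ := exists_del hab h2₀
  obtain ⟨s, hs⟩ := H185.SplitTwo.isSquare_map j hcard c
  have hs0 : s ≠ 0 := by
    rintro rfl
    rw [mul_zero] at hs
    exact hc ((map_eq_zero j).1 hs)
  have hll : (j x + θ * j y) * σ (j x + θ * j y) = j c := by
    have h5 : ∀ t, σ (j t) = j t := fun t => (hj _).2 ⟨t, rfl⟩
    rw [← h, map_add, map_mul, h5, h5]
    simp only [map_add, map_mul, map_pow, ← ha, ← hb]
    ring
  have hl0 : j x + θ * j y ≠ 0 := by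
    intro h5
    rw [h5, zero_mul] at hll
    exact hc ((map_eq_zero j).1 hll.symm)
  have hin := (inn_delM h2 hn hθ ha hb hG hcard hc h (Units.mk0 s hs0) (Units.mk0 _ hl0) hs.symm rfl).2 (by
    rw [chi_lam hj h2σ hc hc1 (l := Units.mk0 _ hl0) hll]
    have h5 : chi F (Units.mk0 s hs0) = -1 := by
      rcases Int.units_eq_one_or (chi F (Units.mk0 s hs0)) with h6 | h6
      · have h7 := (chi_root j h2 hcard hc hc1 (s := Units.mk0 s hs0) hs.symm).1 h6
        omega
      · exact h6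
    rw [h5, hodd.neg_one_pow]
    rfl)
  rw [simPM_eq_pd h2 hn hθ ha hb hG]
  exact H185.SplitTwo.count_four (ext_minus j n a₀ b₀) hG₀ hG h2₀ h2 (card_minus n) hcard hσ hj
    (etaS_delM hG₀ h2₀ hc h) (chi_mu_delM hG₀ hc h hc1) hin

/-- **Two classes.** -/
theorem count_odd_two (h2 : (2 : F) ≠ 0) (hn : 2 ≤ n) (hab : Aniso a₀ b₀) (hθ : θ ≠ σ θ)
    (ha : θ + σ θ = j a₀) (hb : θ * σ θ = j b₀) (hj : ∀ a, σ a = a ↔ ∃ b, j b = a) (h2σ : ∀ a, σ (σ a) = a)
    (hcard : Nat.card F = Nat.card F₀ ^ 2)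
    (hG : Good (minusQ n F (j a₀) (j b₀))) (hσ : Fix σ (minusQ n F (j a₀) (j b₀)))
    (hodd : ¬ (Odd (n + 1) ∧ Nat.card F₀ % 4 = 1)) :
    splitClassCount ((simPM n hθ ha hb).map (S hG)) (Inn (POmega F ⇑(minusQ n F (j a₀) (j b₀))))
      (Phi hG (frobG hσ)) = 2 := by
  have hG₀ := good_minusQ hn hab
  have h2₀ := two_ne_map j h2
  obtain ⟨c, x, y, hc, h, hc1⟩ := exists_del hab h2₀
  obtain ⟨s, hs⟩ := H185.SplitTwo.isSquare_map j hcard c
  have hs0 : s ≠ 0 := by
    rintro rfl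
    rw [mul_zero] at hs
    exact hc ((map_eq_zero j).1 hs)
  have hll : (j x + θ * j y) * σ (j x + θ * j y) = j c := by
    have h5 : ∀ t, σ (j t) = j t := fun t => (hj _).2 ⟨t, rfl⟩
    rw [← h, map_add, map_mul, h5, h5]
    simp only [map_add, map_mul, map_pow, ← ha, ← hb]
    ring
  have hl0 : j x + θ * j y ≠ 0 := by
    intro h5
    rw [h5, zero_mul] at hll
    exact hc ((map_eq_zero j).1 hll.symm)
  have hin : S hG (mapSim (ext_minus j n a₀ b₀) (delM n a₀ b₀ hc h)) ∉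
      Inn (POmega F ⇑(minusQ n F (j a₀) (j b₀))) := by
    rw [inn_delM h2 hn hθ ha hb hG hcard hc h (Units.mk0 s hs0) (Units.mk0 _ hl0) hs.symm rfl,
      chi_lam hj h2σ hc hc1 (l := Units.mk0 _ hl0) hll]
    have hr := chi_root j h2 hcard hc hc1 (s := Units.mk0 s hs0) hs.symm
    have hodd4 : Nat.card F₀ % 4 = 3 ∨ Nat.card F₀ % 4 = 1 := by
      have := Fintype.ofFinite F₀
      have hch₀ : ringChar F₀ ≠ 2 := Cfsg.Agent.ClassicalGeometry.Universal.ringChar_ne_two h2₀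
      have h6 : Nat.card F₀ % 2 = 1 := by
        rw [Nat.card_eq_fintype_card]
        exact FiniteField.odd_card_of_char_ne_two hch₀
      omega
    rcases hodd4 with h6 | h6
    · rw [hr.2 h6, one_pow]
      decide
    · have h7 : chi F (Units.mk0 s hs0) = -1 := by
        rcases Int.units_eq_one_or (chi F (Units.mk0 s hs0)) with h7 | h7
        · have h8 := hr.1 h7
          omega
        · exact h7
      have h8 : Even (n + 1) := by
        rw [← Nat.not_odd_iff_even]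
        exact fun h9 => hodd ⟨h9, h6⟩
      rw [h7, h8.neg_one_pow]
      decide
  rw [simPM_eq_pd h2 hn hθ ha hb hG]
  exact H185.SplitTwo.count_two (ext_minus j n a₀ b₀) hG₀ hG h2₀ h2 (card_minus n) hcard hσ hj
    (etaS_delM hG₀ h2₀ hc h) (chi_mu_delM hG₀ hc h hc1) hin

end Main

end Cfsg.Agent.H204.GFCount
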