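import Mathlib
import Cfsg.Agent.H198.SplitCount
import Cfsg.Agent.H198.ClassesMinus
import Cfsg.Agent.H204.TorSign

/-!
# Classes of semisimple elements of odd order in the projective similarity group (helper204)

`Q` a good quadratic form on `ι → F`, `F` finite of odd characteristic, `card ι = 2 m`.
* `exists_lift` : an element `S g` of odd order `r` is `S s` with `s ^ r = 1`, `s` an isometry;
* `exists_comm_sim` : proper similarities of each multiplier commuting with `s`;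
* `exists_comm_odd` : a proper isometry outside `Omega` commuting with `s`;
* `main` : the classes of such an element under `Inn`, `PSO`, the image of the proper similarities are the same,
  and so are the classes under `PO` and `PGO`.
-/

set_option autoImplicit false

namespace Cfsg.Agent.H204

open Module Matrix QuadraticMap Cfsg.Agent.LieClassical.OrthCore Cfsg.Agent.LieClassical.OrthTrans
  Cfsg.Agent.ClassicalGeometry.OrthSemi Cfsg.Agent.H198.Classes Cfsg.Agent.H198.OrthFrame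
  Cfsg.Agent.H198.ClassesPlus Cfsg.Agent.H198.Carriers Cfsg.Agent.H198.ClassesMinus
  Cfsg.Agent.H198.SplitCount

universe u

variable {ι : Type} [Fintype ι] [DecidableEq ι] {F : Type u} [Field F]
  {Q : QuadraticForm F (ι → F)}

/-- The linear map of a similarity. -/
noncomputable def lin (g : Sim Q) : Module.End F (ι → F) :=
  Matrix.mulVecLin ((g : GL ι F) : Matrix ι ι F)

omit [Fintype ι] [DecidableEq ι] in
theorem sy_polar (Q : QuadraticForm F (ι → F)) : Sy (polarBilin Q) := fun _ _ => polar_comm _ _ _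

omit [Fintype ι] [DecidableEq ι] in
theorem pol_self (Q : QuadraticForm F (ι → F)) (v : ι → F) : polarBilin Q v v = 2 * Q v := by
  rw [polarBilin_apply_apply, polar_self, two_nsmul, two_mul]

omit [Fintype ι] [DecidableEq ι] in
theorem nd_polar (hG : Good Q) : Nd (polarBilin Q) := fun u hu => hG.nondeg u hu

theorem lin_apply (g : Sim Q) (v : ι → F) : lin g v = ((g : GL ι F) : Matrix ι ι F) *ᵥ v := rfl

theorem lin_mul (g h : Sim Q) : lin (g * h) = lin g * lin h := by
  refine LinearMap.ext fun v => ?_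
  exact (mulVec_mulVec v ((g : GL ι F) : Matrix ι ι F) ((h : GL ι F) : Matrix ι ι F)).symm

theorem lin_one : lin (1 : Sim Q) = 1 := by
  refine LinearMap.ext fun v => ?_
  exact one_mulVec _

theorem lin_pow (g : Sim Q) (n : ℕ) : lin (g ^ n) = lin g ^ n := by
  induction n with
  | zero => rw [pow_zero, pow_zero, lin_one]
  | succ n ih => rw [pow_succ, pow_succ, lin_mul, ih]

theorem lin_injective : Function.Injective (lin (Q := Q)) := by
  intro g h hgh
  apply Subtype.ext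
  apply Units.ext
  rw [← Matrix.mulVec_injective.eq_iff]
  funext v
  exact LinearMap.congr_fun hgh v

theorem det_lin (g : Sim Q) : LinearMap.det (lin g) = ((dt g : Fˣ) : F) := by
  rw [dt_apply, lin]
  exact LinearMap.det_toLin' _

theorem smi_lin (hG : Good Q) (g : Sim Q) : Smi (polarBilin Q) (mu hG g : F) (lin g) := by
  intro u v
  rw [polarBilin_apply_apply, polarBilin_apply_apply, polar, polar, ← map_add, lin_apply, lin_apply,
    lin_apply, mu_spec hG, mu_spec hG, mu_spec hG]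
  ring

theorem exists_sim_of_smi (h2 : (2 : F) ≠ 0) (hG : Good Q) {c : F} (hc : c ≠ 0)
    {g : Module.End F (ι → F)} (hg : Smi (polarBilin Q) c g) :
    ∃ k : Sim Q, lin k = g ∧ ((mu hG k : Fˣ) : F) = c ∧ ((dt k : Fˣ) : F) = LinearMap.det g := by
  have hQ : ∀ v, Q (g v) = c * Q v := by
    intro v
    have h1 := hg v v
    rw [pol_self, pol_self] at h1
    have h3 : (2 : F) * Q (g v) = 2 * (c * Q v) := by
      linear_combination h1
    exact mul_left_cancel₀ h2 h3
  have hinj : Function.Injective g := by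
    rw [← LinearMap.ker_eq_bot, LinearMap.ker_eq_bot']
    intro x hx
    apply nd_polar hG
    intro y
    have h := hg x y
    rw [hx, map_zero, LinearMap.zero_apply] at h
    exact (mul_eq_zero.1 h.symm).resolve_left hc
  have hdet : (LinearMap.toMatrix' g).det ≠ 0 := by
    rw [LinearMap.det_toMatrix']
    have h1 := LinearEquiv.isUnit_det' (LinearEquiv.ofInjectiveEndo g hinj)
    exact h1.ne_zero
  let k : GL ι F := Matrix.GeneralLinearGroup.mkOfDetNeZero (LinearMap.toMatrix' g) hdet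
  have hk : ∀ v : ι → F, (k : Matrix ι ι F) *ᵥ v = g v := fun v => LinearMap.toMatrix'_mulVec g v
  have hkm : k ∈ Sim Q := ⟨Units.mk0 c hc, fun v => by rw [hk, hQ]; rfl⟩
  refine ⟨⟨k, hkm⟩, LinearMap.ext hk, ?_, ?_⟩
  · have h1 : mu hG ⟨k, hkm⟩ = Units.mk0 c hc := mu_unique hG _ fun v => by
      change Q ((k : Matrix ι ι F) *ᵥ v) = _
      rw [hk, hQ]; rfl
    rw [h1]; rfl
  · rw [← det_lin]
    congr 1
    exact LinearMap.ext hk

/-! ### Lifting -/

theorem exists_lift (hG : Good Q) (g : Sim Q) {r : ℕ} (hro : Odd r) (hg : S hG (g ^ r) = 1) :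
    ∃ s : Sim Q, S hG s = S hG g ∧ s ^ r = 1 ∧ mu hG s = 1 := by
  have hS : ∀ a : Fˣ, S hG (scSim Q a) = 1 := fun a => (S_eq_one_iff hG _).2 ⟨a, coe_scSim a⟩
  have hcomm : ∀ (a : Fˣ) (k : Sim Q), scSim Q a * k = k * scSim Q a := by
    intro a k
    apply lin_injective
    rw [lin_mul, lin_mul]
    refine LinearMap.ext fun v => ?_
    rw [Module.End.mul_apply, Module.End.mul_apply, lin_apply (scSim Q a),
      lin_apply (scSim Q a), scSim_mulVec, scSim_mulVec, map_smul]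
  obtain ⟨a, ha⟩ := (S_eq_one_iff hG _).1 hg
  have hga : g ^ r = scSim Q a := by
    apply Subtype.ext
    apply Units.ext
    rw [ha, coe_scSim]
  obtain ⟨e, he⟩ : ∃ e, r + 1 = 2 * e := by
    obtain ⟨k, hk⟩ := hro
    exact ⟨k + 1, by omega⟩
  have hmr : mu hG g ^ r = a * a := by rw [← map_pow, hga, mu_scSim]
  -- `a` is an `r`-th power
  set b : Fˣ := mu hG g ^ e * a⁻¹ with hb
  have hbr : b ^ r = a := by
    have h1 : (mu hG g ^ e) ^ r = a ^ (2 * e) := by
      rw [← pow_mul, mul_comm e r, pow_mul, hmr, ← pow_two, ← pow_mul]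
    rw [hb, mul_pow, h1, ← he, pow_succ, inv_pow, mul_comm (a ^ r), mul_assoc, mul_inv_cancel,
      mul_one]
  set g' : Sim Q := scSim Q b⁻¹ * g with hg'
  have hg'r : g' ^ r = 1 := by
    rw [hg', (show Commute (scSim Q b⁻¹) g from hcomm _ _).mul_pow, hga, ← map_pow, ← map_mul,
      inv_pow, hbr, inv_mul_cancel, map_one]
  set ν := mu hG g' with hν
  have hνr : ν ^ r = 1 := by rw [hν, ← map_pow, hg'r, map_one]
  have hρ2 : ν ^ e * ν ^ e = ν := by
    rw [← pow_add, ← two_mul, ← he, pow_succ, hνr, one_mul]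
  refine ⟨scSim Q (ν ^ e)⁻¹ * g', ?_, ?_, ?_⟩
  · rw [map_mul, hS, one_mul, hg', map_mul, hS, one_mul]
  · rw [(show Commute (scSim Q (ν ^ e)⁻¹) g' from hcomm _ _).mul_pow, hg'r, mul_one, ← map_pow,
      inv_pow, ← pow_mul, mul_comm e r, pow_mul, hνr, one_pow, inv_one, map_one]
  · rw [map_mul, mu_scSim, ← mul_inv, hρ2, ← hν, inv_mul_cancel]

/-! ### Commuting elements -/

section Comm

variable [Fintype F] {m r : ℕ}

theorem exists_comm_sim (ho : Odd (Fintype.card F)) (hG : Good Q) (hm : Fintype.card ι = 2 * m)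
    (hro : Odd r) (hr : (r : F) ≠ 0) {s : Sim Q} (hs : s ^ r = 1) (hs1 : mu hG s = 1) (c : Fˣ) :
    ∃ k : Sim Q, k * s = s * k ∧ mu hG k = c ∧ dt k = c ^ m := by
  have h2 := two_ne_zero_of_odd ho
  have hfr : finrank F (ι → F) = 2 * m := by rw [Module.finrank_fintype_fun_eq_card, hm]
  have hB : Smi (polarBilin Q) 1 (lin s) := by
    have := smi_lin hG s
    rwa [hs1, Units.val_one] at this
  obtain ⟨g, hg1, hg2, hg3⟩ := exists_sim ho hro hr c.ne_zero m (ι → F) (polarBilin Q) (lin s)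
    (nd_polar hG) (sy_polar Q) hB (by rw [← lin_pow, hs, lin_one]) hfr
  obtain ⟨k, hk1, hk2, hk3⟩ := exists_sim_of_smi h2 hG c.ne_zero hg1
  refine ⟨k, ?_, Units.ext hk2, Units.ext (by rw [hk3, hg3, Units.val_pow_eq_pow_val])⟩
  apply lin_injective
  rw [lin_mul, lin_mul, hk1]
  exact LinearMap.ext hg2

open Cfsg.Agent.ClassicalGeometry.SpinorSign in
theorem exists_comm_odd (ho : Odd (Fintype.card F)) (hG : Good Q)
    (hro : Odd r) (hr : (r : F) ≠ 0) {s : Sim Q} (hs : s ^ r = 1) (hs1 : mu hG s = 1)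
    (hne : s ≠ 1) :
    ∃ k : Sim Q, k * s = s * k ∧ mu hG k = 1 ∧ dt k = 1 ∧
      ∀ hk : (k : GL ι F) ∈ isometryGroup F ⇑Q, spinorSign (⇑Q) 1 ⟨k, hk⟩ = -1 := by
  classical
  have h2 := two_ne_zero_of_odd ho
  have hB : Smi (polarBilin Q) 1 (lin s) := by
    have := smi_lin hG s
    rwa [hs1, Units.val_one] at this
  obtain ⟨t, ht1, ht2, ht3, ht4⟩ := exists_odd_torus ho (nd_polar hG) (sy_polar Q) hB hro hr
    (by rw [← lin_pow, hs, lin_one]) (fun h => hne (lin_injective (by rw [h, lin_one])))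
  obtain ⟨k, hk1, hk2, hk3⟩ := exists_sim_of_smi h2 hG one_ne_zero ht1
  refine ⟨k, ?_, Units.ext (by rw [hk2, Units.val_one]), Units.ext (by rw [hk3, ht3,
    Units.val_one]), fun hk => ?_⟩
  · apply lin_injective
    rw [lin_mul, lin_mul, hk1]
    exact LinearMap.ext ht2
  · have := Fintype.ofFinite {x : ι → F // Q x = 1}
    have := Fintype.ofFinite {v : ι → F // polarBilin Q v v = 2}
    rw [spinorSign_apply]
    have hP : ∀ v : ι → F, Q v = 1 ↔ polarBilin Q v v = 2 := by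
      intro v
      rw [pol_self]
      constructor
      · intro h; rw [h, mul_one]
      · intro h
        exact mul_left_cancel₀ h2 (by rw [h, mul_one])
    let e : {x : ι → F // Q x = 1} ≃ {v : ι → F // polarBilin Q v v = 2} :=
      Equiv.subtypeEquivRight hP
    rw [← Equiv.Perm.sign_permCongr e]
    refine ht4 2 h2 _ fun v => ?_
    have h3 : (e.permCongr (quadricPerm (⇑Q) 1 ⟨k, hk⟩)) v = e (quadricPerm (⇑Q) 1 ⟨k, hk⟩
      (e.symm v)) := rfl
    rw [h3]
    change lin k (v : ι → F) = _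
    rw [hk1]

end Comm

section Main

open Cfsg.Agent.ClassicalGeometry.SpinorSign

variable [Fintype F] {m r : ℕ}

omit [Fintype F] in
theorem isConj_of {hG : Good Q} {s u k h : Sim Q} (hk : k * s = s * k) (hh : h = u * k) :
    S hG h * S hG s * (S hG h)⁻¹ = S hG u * S hG s * (S hG u)⁻¹ := by
  rw [← map_mul, ← map_mul, ← map_inv, ← map_inv, ← map_mul, ← map_mul, hh]
  congr 1
  calc u * k * s * (u * k)⁻¹ = u * (k * s) * k⁻¹ * u⁻¹ := by group
    _ = u * s * u⁻¹ := by rw [hk]; group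

theorem mem_inn_of (ho : Odd (Fintype.card F)) (hG : Good Q) {u : Sim Q} (h1 : mu hG u = 1)
    (h2 : dt u = 1) (h3 : ∀ hu : (u : GL ι F) ∈ isometryGroup F ⇑Q,
      spinorSign (⇑Q) 1 ⟨u, hu⟩ = 1) : S hG u ∈ Inn (POmega F ⇑Q) := by
  have hu := (mu_eq_one_iff hG u).1 h1
  rw [inn_eq hG]
  refine ⟨u, ?_, rfl⟩
  rw [SetLike.mem_coe, Subgroup.mem_subgroupOf, mem_omGL]
  refine ⟨hu, ?_⟩
  have hnd : (polarBilin Q).Nondegenerate := nondegenerate_of (sy_polar Q) (nd_polar hG)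
  have hc : 2 ≤ Fintype.card ι := by
    have := hG.dim
    rw [Module.finrank_fintype_fun_eq_card] at this
    omega
  rw [ClassicalGeometry.OmegaIndex.mem_Omega_iff (two_ne_zero_of_odd ho) Q hnd hc one_ne_zero]
  refine ⟨?_, h3 hu⟩
  have := congrArg Units.val h2
  rwa [dt_apply, Units.val_one] at this

theorem main (ho : Odd (Fintype.card F)) (hG : Good Q) (hm : Fintype.card ι = 2 * m)
    (P : Subgroup (Sim Q)) (hP : ∀ g, g ∈ P ↔ dt g = mu hG g ^ m)
    (x : MulAut (POmega F ⇑Q)) (hx : x ∈ pgoAut F ⇑Q) (hro : Odd r) (hr : (r : F) ≠ 0)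
    (hr1 : r ≠ 1) (hxr : orderOf x = r) :
    (∀ y, (IsConjUnder (Inn (POmega F ⇑Q)) x y ↔ IsConjUnder (P.map (S hG)) x y) ∧
      (IsConjUnder (psoAut F ⇑Q) x y ↔ IsConjUnder (P.map (S hG)) x y)) ∧
    ∀ y, IsConjUnder (poAut F ⇑Q) x y ↔ IsConjUnder (pgoAut F ⇑Q) x y := by
  have hnd : (polarBilin Q).Nondegenerate := nondegenerate_of (sy_polar Q) (nd_polar hG)
  have hc : 2 ≤ Fintype.card ι := by
    have := hG.dim
    rw [Module.finrank_fintype_fun_eq_card] at this
    omega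
  rw [pgoAut_eq hG] at hx
  obtain ⟨g, rfl⟩ := hx
  obtain ⟨s, hs, hsr, hs1⟩ := exists_lift hG g hro (by rw [map_pow, ← hxr, pow_orderOf_eq_one])
  rw [← hs] at hxr ⊢
  have hsne : s ≠ 1 := by
    rintro rfl
    rw [map_one, orderOf_one] at hxr
    exact hr1 hxr.symm
  -- inclusions
  have i1 : Inn (POmega F ⇑Q) ≤ psoAut F ⇑Q := by
    rw [inn_eq hG, psoAut_eq hG]
    apply Subgroup.map_mono
    intro u hu
    rw [Subgroup.mem_subgroupOf, mem_omGL] at hu
    obtain ⟨h1, h2⟩ := hu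
    rw [ClassicalGeometry.OmegaIndex.mem_Omega_iff (two_ne_zero_of_odd ho) Q hnd hc
      one_ne_zero] at h2
    rw [Subgroup.mem_subgroupOf]
    refine ⟨h1, ?_⟩
    exact MonoidHom.mem_ker.2 (Units.ext h2.1)
  have i2 : psoAut F ⇑Q ≤ P.map (S hG) := by
    rw [psoAut_eq hG]
    apply Subgroup.map_mono
    intro u hu
    rw [Subgroup.mem_subgroupOf] at hu
    rw [hP, (mu_eq_one_iff hG u).2 hu.1, one_pow]
    exact MonoidHom.mem_ker.1 hu.2
  have key : ∀ y, IsConjUnder (P.map (S hG)) (S hG s) y →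
      IsConjUnder (Inn (POmega F ⇑Q)) (S hG s) y := by
    rintro y ⟨_, ⟨h, hh, rfl⟩, rfl⟩
    rw [SetLike.mem_coe, hP] at hh
    obtain ⟨k, hk1, hk2, hk3⟩ := exists_comm_sim ho hG hm hro hr hsr hs1 (mu hG h)
    have hu1 : mu hG (h * k⁻¹) = 1 := by rw [map_mul, map_inv, hk2, mul_inv_cancel]
    have hu2 : dt (h * k⁻¹) = 1 := by rw [map_mul, map_inv, hk3, hh, mul_inv_cancel]
    have hu := (mu_eq_one_iff hG _).1 hu1
    rcases Int.units_eq_one_or (spinorSign (⇑Q) 1 ⟨(h * k⁻¹ : Sim Q), hu⟩) with h1 | h1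
    · refine ⟨S hG (h * k⁻¹), mem_inn_of ho hG hu1 hu2 (fun _ => h1), ?_⟩
      exact isConj_of hk1 (by group)
    · obtain ⟨t, ht1, ht2, ht3, ht4⟩ := exists_comm_odd ho hG hro hr hsr hs1 hsne
      have ht := (mu_eq_one_iff hG t).1 ht2
      refine ⟨S hG (h * k⁻¹ * t⁻¹), mem_inn_of ho hG ?_ ?_ (fun hut => ?_), ?_⟩
      · rw [map_mul, hu1, map_inv, ht2, inv_one, mul_one]
      · rw [map_mul, hu2, map_inv, ht3, inv_one, mul_one]
      · have h2 : (⟨(h * k⁻¹ * t⁻¹ : Sim Q), hut⟩ : isometryGroup F ⇑Q) =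
            ⟨(h * k⁻¹ : Sim Q), hu⟩ * (⟨t, ht⟩ : isometryGroup F ⇑Q)⁻¹ := rfl
        rw [h2, map_mul, h1, map_inv, ht4 ht]
        decide
      · refine isConj_of (k := t * k) ?_ (by group)
        rw [mul_assoc, hk1, ← mul_assoc, ht1, mul_assoc]
  refine ⟨fun y => ⟨⟨isConjUnder_mono (i1.trans i2), key y⟩, ⟨isConjUnder_mono i2, fun h =>
    isConjUnder_mono i1 (key y h)⟩⟩, fun y => ⟨isConjUnder_mono ?_, ?_⟩⟩
  · rw [poAut_eq hG, pgoAut_eq hG]
    rintro _ ⟨u, -, rfl⟩
    exact ⟨u, rfl⟩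
  · rw [poAut_eq hG, pgoAut_eq hG]
    rintro ⟨_, ⟨h, rfl⟩, rfl⟩
    obtain ⟨k, hk1, hk2, hk3⟩ := exists_comm_sim ho hG hm hro hr hsr hs1 (mu hG h)
    have hu1 : mu hG (h * k⁻¹) = 1 := by rw [map_mul, map_inv, hk2, mul_inv_cancel]
    exact ⟨S hG (h * k⁻¹), ⟨h * k⁻¹, (mu_eq_one_iff hG _).1 hu1, rfl⟩,
      isConj_of hk1 (by group)⟩

end Main

theorem odd_card_of {F : Type*} [Field F] [Fintype F] {p : ℕ} [Fact p.Prime] [CharP F p]
    (hp : p ≠ 2) : Odd (Fintype.card F) := by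
  obtain ⟨n, hpr, hn⟩ := FiniteField.card F p
  rw [hn]
  exact (hpr.odd_of_ne_two hp).pow

theorem cast_ne_zero_of {F : Type*} [Field F] {p : ℕ} [Fact p.Prime] [CharP F p] {r : ℕ}
    (hr : r.Prime) (hrp : r ≠ p) : (r : F) ≠ 0 := by
  intro h
  rw [CharP.cast_eq_zero_iff F p] at h
  exact hrp ((Nat.prime_dvd_prime_iff_eq Fact.out hr).1 h).symm

end Cfsg.Agent.H204
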